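import Cfsg.Agent.H5.RootClosure
import Cfsg.Agent.H5.OmegaCriterion
import Cfsg.Agent.H98.SingPair
import Mathlib.LinearAlgebra.Dual.Lemmas

/-!
# A plane tensored with a symplectic space

An orthogonal space of plus type written as `U ⊗ W` with `U` a symplectic plane and `W` a symplectic space.
The lines `U ⊗ w` carry root elements preserving the decomposition.
-/

set_option autoImplicit false
set_option linter.unusedSectionVars false

namespace Cfsg.Agent.H58.TensorTwo

open QuadraticMap hiding sq
open Cfsg.Agent.H5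

variable {F V W : Type*} [Field F] [AddCommGroup V] [Module F V] [AddCommGroup W] [Module F W]
variable {Q : QuadraticForm F V}

/-- The two layers `i₁ w = u ⊗ w` and `i₂ w = u' ⊗ w`. -/
structure Split (Q : QuadraticForm F V) (i₁ i₂ : W →ₗ[F] V) (f : W →ₗ[F] W →ₗ[F] F) : Prop where
  span : ∀ v, ∃ x y, i₁ x + i₂ y = v
  inj : ∀ x y, i₁ x + i₂ y = 0 → x = 0 ∧ y = 0
  qf : ∀ x y, Q (i₁ x + i₂ y) = f x y
  alt : ∀ x, f x x = 0
  nd : ∀ x, (∀ y, f x y = 0) → x = 0

/-- An element preserving the decomposition. -/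
def Pure (i₁ i₂ : W →ₗ[F] V) (g : orth Q) : Prop :=
  ∃ a b c d : F, a * d - b * c ≠ 0 ∧ ∀ w, ∃ v, g.1 (i₁ w) = i₁ (a • v) + i₂ (c • v) ∧
    g.1 (i₂ w) = i₁ (b • v) + i₂ (d • v)

/-- The whole root group of a totally singular line. -/
def RootL (M : Subgroup (orth Q)) (e a : V) : Prop := ∀ t : F, RootIn M e (t • a)

/-- A vector in the layer of `v`. -/
def InLine (i₁ i₂ : W →ₗ[F] V) (v : W) (x : V) : Prop := ∃ p r : F, x = i₁ (p • v) + i₂ (r • v)

namespace Split

variable {i₁ i₂ : W →ₗ[F] V} {f : W →ₗ[F] W →ₗ[F] F} (H : Split Q i₁ i₂ f)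
include H

theorem eq_iff {x y x' y' : W} : i₁ x + i₂ y = i₁ x' + i₂ y' ↔ x = x' ∧ y = y' := by
  refine ⟨fun h => ?_, fun ⟨h, h'⟩ => by rw [h, h']⟩
  obtain ⟨h1, h2⟩ := H.inj (x - x') (y - y') (by
    rw [map_sub, map_sub]
    linear_combination (norm := module) h)
  exact ⟨sub_eq_zero.1 h1, sub_eq_zero.1 h2⟩

theorem comp {x y x' y' : W} (h : i₁ x + i₂ y = i₁ x' + i₂ y') : x = x' ∧ y = y' := H.eq_iff.1 h

theorem skew (x y : W) : f x y = -f y x := by
  have h := H.alt (x + y)
  simp only [map_add, LinearMap.add_apply, H.alt, zero_add, add_zero] at h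
  linear_combination h

theorem polar_mk (x y x' y' : W) : polar Q (i₁ x + i₂ y) (i₁ x' + i₂ y') = f x y' + f x' y := by
  rw [polar, show i₁ x + i₂ y + (i₁ x' + i₂ y') = i₁ (x + x') + i₂ (y + y') by rw [map_add, map_add]; abel,
    H.qf, H.qf, H.qf]
  simp only [map_add, LinearMap.add_apply]
  ring

theorem polar_i₁ (w x y : W) : polar Q (i₁ w) (i₁ x + i₂ y) = f w y := by
  simpa using H.polar_mk w 0 x y

theorem polar_i₂ (w x y : W) : polar Q (i₂ w) (i₁ x + i₂ y) = f x w := by
  simpa using H.polar_mk 0 w x y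

theorem polar₁₁ (x y : W) : polar Q (i₁ x) (i₁ y) = 0 := by simpa using H.polar_i₁ x y 0
theorem polar₁₂ (x y : W) : polar Q (i₁ x) (i₂ y) = f x y := by simpa using H.polar_i₁ x 0 y
theorem polar₂₁ (x y : W) : polar Q (i₂ x) (i₁ y) = f y x := by simpa using H.polar_i₂ x y 0
theorem polar₂₂ (x y : W) : polar Q (i₂ x) (i₂ y) = 0 := by simpa using H.polar_i₂ x 0 y
theorem qf₁ (x : W) : Q (i₁ x) = 0 := by simpa using H.qf x 0
theorem qf₂ (x : W) : Q (i₂ x) = 0 := by simpa using H.qf 0 x

/-- Values of the form can be prescribed. -/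
theorem exists_val [FiniteDimensional F W] {n : ℕ} (L : Fin n → W) {p : W}
    (hp : p ∉ Submodule.span F (Set.range L)) : ∃ w, (∀ i, f (L i) w = 0) ∧ f p w = 1 := by
  by_contra h
  push Not at h
  refine hp ?_
  have hker : ⨅ i, LinearMap.ker (f (L i)) ≤ LinearMap.ker (f p) := fun w hw => by
    rw [Submodule.mem_iInf] at hw
    by_contra hne
    refine h ((f p w)⁻¹ • w) (fun i => by rw [map_smul, LinearMap.mem_ker.1 (hw i), smul_zero]) ?_
    rw [map_smul, smul_eq_mul, inv_mul_cancel₀ hne]
  obtain ⟨c, hc⟩ := (Submodule.mem_span_range_iff_exists_fun F).1 (mem_span_of_iInf_ker_le_ker hker)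
  refine (Submodule.mem_span_range_iff_exists_fun F).2 ⟨c, ?_⟩
  refine sub_eq_zero.1 (H.nd _ fun y => ?_)
  rw [map_sub, map_sum, LinearMap.sub_apply, ← hc, sub_eq_zero]
  simp only [map_smul]

theorem exists_val₁ [FiniteDimensional F W] {u p : W} (hp : p ∉ Submodule.span F {u}) :
    ∃ w, f u w = 0 ∧ f p w = 1 := by
  obtain ⟨w, h1, h2⟩ := H.exists_val ![u] (p := p) (by simpa using hp)
  exact ⟨w, h1 0, h2⟩

theorem exists_val₂ [FiniteDimensional F W] {u u' p : W} (hp : p ∉ Submodule.span F {u, u'}) :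
    ∃ w, f u w = 0 ∧ f u' w = 0 ∧ f p w = 1 := by
  obtain ⟨w, h1, h2⟩ := H.exists_val ![u, u'] (p := p) (by simpa [Set.pair_comm] using hp)
  exact ⟨w, h1 0, h1 1, h2⟩

/-- A vector perpendicular to two others and outside their span. -/
theorem exists_perp [FiniteDimensional F W] (h5 : 5 ≤ Module.finrank F W) (u v : W) :
    ∃ p, f u p = 0 ∧ f v p = 0 ∧ p ∉ Submodule.span F {u, v} := by
  by_contra h
  push Not at h
  have hle : LinearMap.ker ((f u).prod (f v)) ≤ Submodule.span F {u, v} := fun p hp => by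
    rw [LinearMap.mem_ker, LinearMap.prod_apply, Function.prod_apply, Prod.mk_eq_zero] at hp
    exact h p hp.1 hp.2
  have h1 := ((f u).prod (f v)).finrank_range_add_finrank_ker
  have h2 := Submodule.finrank_le (LinearMap.range ((f u).prod (f v)))
  rw [Module.finrank_prod, Module.finrank_self] at h2
  have h3 := Submodule.finrank_mono hle
  have h4 : Module.finrank F (Submodule.span F ({u, v} : Set W)) ≤ 2 := by
    classical
    have e : ({u, v} : Set W) = ↑({u, v} : Finset W) := by simp
    rw [e]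
    exact (finrank_span_finset_le_card _).trans Finset.card_le_two
  omega

/-- The linear map of a matrix acting on the plane. -/
theorem exists_act (a b c d : F) (h : a * d - b * c = 1) :
    ∃ g : orth Q, (∀ x y, g.1 (i₁ x + i₂ y) = i₁ (a • x + b • y) + i₂ (c • x + d • y)) ∧ Pure i₁ i₂ g := by
  let Φ : (W × W) ≃ₗ[F] V := LinearEquiv.ofBijective (i₁.coprod i₂)
    ⟨fun p p' hp => Prod.ext (H.comp hp).1 (H.comp hp).2, fun v => by
      obtain ⟨x, y, hxy⟩ := H.span v
      exact ⟨(x, y), hxy⟩⟩
  let A : (W × W) →ₗ[F] (W × W) :=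
    { toFun := fun p => (a • p.1 + b • p.2, c • p.1 + d • p.2)
      map_add' := fun p p' => by ext <;> simp [smul_add] <;> abel
      map_smul' := fun t p => by ext <;> simp [smul_comm t] }
  let B : (W × W) →ₗ[F] (W × W) :=
    { toFun := fun p => (d • p.1 - b • p.2, a • p.2 - c • p.1)
      map_add' := fun p p' => by ext <;> simp [smul_add] <;> abel
      map_smul' := fun t p => by ext <;> simp [smul_comm t, smul_sub] }
  let L : (W × W) ≃ₗ[F] (W × W) := LinearEquiv.ofLinear A B
    (LinearMap.ext fun p => Prod.ext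
      (by show a • (d • p.1 - b • p.2) + b • (a • p.2 - c • p.1) = p.1
          linear_combination (norm := module) congrArg (fun z => z • p.1) h)
      (by show c • (d • p.1 - b • p.2) + d • (a • p.2 - c • p.1) = p.2
          linear_combination (norm := module) congrArg (fun z => z • p.2) h))
    (LinearMap.ext fun p => Prod.ext
      (by show d • (a • p.1 + b • p.2) - b • (c • p.1 + d • p.2) = p.1
          linear_combination (norm := module) congrArg (fun z => z • p.1) h)
      (by show a • (c • p.1 + d • p.2) - c • (a • p.1 + b • p.2) = p.2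
          linear_combination (norm := module) congrArg (fun z => z • p.2) h))
  let g : V ≃ₗ[F] V := Φ.symm.trans (L.trans Φ)
  have hg : ∀ x y, g (i₁ x + i₂ y) = i₁ (a • x + b • y) + i₂ (c • x + d • y) := fun x y => by
    show Φ (L (Φ.symm (i₁ x + i₂ y))) = _
    rw [show Φ.symm (i₁ x + i₂ y) = (x, y) from Φ.symm_apply_eq.2 rfl]
    rfl
  refine ⟨⟨g, fun v => ?_⟩, hg, a, b, c, d, by rw [h]; exact one_ne_zero, fun w => ⟨w, ?_, ?_⟩⟩
  · obtain ⟨x, y, rfl⟩ := H.span v
    rw [hg, H.qf, H.qf]
    simp only [map_add, map_smul, LinearMap.add_apply, LinearMap.smul_apply, smul_eq_mul, H.alt]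
    linear_combination b * c * H.skew y x + f x y * h
  · simpa using hg w 0
  · simpa using hg 0 w

/-- Another basis of the plane. -/
theorem frame (α β γ δ : F) (h : α * δ - β * γ = 1) : Split Q (α • i₁ + β • i₂) (γ • i₁ + δ • i₂) f := by
  have e : ∀ x y, (α • i₁ + β • i₂) x + (γ • i₁ + δ • i₂) y = i₁ (α • x + γ • y) + i₂ (β • x + δ • y) :=
    fun x y => by simp only [LinearMap.add_apply, LinearMap.smul_apply, map_add, map_smul]; module
  refine ⟨fun v => ?_, fun x y hxy => ?_, fun x y => ?_, H.alt, H.nd⟩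
  · obtain ⟨x, y, rfl⟩ := H.span v
    refine ⟨δ • x - γ • y, α • y - β • x, ?_⟩
    rw [e]
    congr 2
    · linear_combination (norm := module) congrArg (fun z => z • x) h
    · linear_combination (norm := module) congrArg (fun z => z • y) h
  · rw [e] at hxy
    obtain ⟨h1, h2⟩ := H.inj _ _ hxy
    constructor
    · linear_combination (norm := module) congrArg (fun z => z • x) h.symm + δ • h1 - γ • h2
    · linear_combination (norm := module) congrArg (fun z => z • y) h.symm - β • h1 + α • h2
  · rw [e, H.qf]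
    simp only [map_add, map_smul, LinearMap.add_apply, LinearMap.smul_apply, smul_eq_mul, H.alt]
    linear_combination γ * β * H.skew y x + f x y * h

/-- Preserving the decomposition does not depend on the basis of the plane. -/
theorem pure_of_frame {α β γ δ : F} (h : α * δ - β * γ = 1) {g : orth Q}
    (hg : Pure (α • i₁ + β • i₂) (γ • i₁ + δ • i₂) g) : Pure i₁ i₂ g := by
  obtain ⟨a, b, c, d, hdet, hv⟩ := hg
  -- the matrix `B (a b; c d) B⁻¹`
  refine ⟨δ * (α * a + γ * c) - β * (α * b + γ * d), α * (α * b + γ * d) - γ * (α * a + γ * c),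
    δ * (β * a + δ * c) - β * (β * b + δ * d), α * (β * b + δ * d) - γ * (β * a + δ * c), ?_, fun w => ?_⟩
  · convert hdet using 1
    linear_combination (a * d - b * c) * (α * δ - β * γ + 1) * h
  obtain ⟨v, h1, h2⟩ := hv w
  have e1 : i₁ w = δ • (α • i₁ + β • i₂) w - β • (γ • i₁ + δ • i₂) w := by
    simp only [LinearMap.add_apply, LinearMap.smul_apply]
    linear_combination (norm := module) congrArg (fun z => z • i₁ w) h.symm
  have e2 : i₂ w = α • (γ • i₁ + δ • i₂) w - γ • (α • i₁ + β • i₂) w := by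
    simp only [LinearMap.add_apply, LinearMap.smul_apply]
    linear_combination (norm := module) congrArg (fun z => z • i₂ w) h.symm
  refine ⟨v, ?_, ?_⟩
  · rw [e1, map_sub, LinearEquiv.map_smul, LinearEquiv.map_smul, h1, h2]
    simp only [LinearMap.add_apply, LinearMap.smul_apply, map_smul]
    module
  · rw [e2, map_sub, LinearEquiv.map_smul, LinearEquiv.map_smul, h1, h2]
    simp only [LinearMap.add_apply, LinearMap.smul_apply, map_smul]
    module

end Split

section Root

variable {M : Subgroup (orth Q)}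

theorem RootL.root {e a : V} (h : RootL M e a) : RootIn M e a := by simpa using h 1

theorem RootL.add {e a b : V} (ha : RootL M e a) (hb : RootL M e b) : RootL M e (a + b) := fun t => by
  rw [smul_add]; exact (ha t).add (hb t)

theorem RootL.smul {e a : V} (ha : RootL M e a) (s : F) : RootL M e (s • a) := fun t => by
  rw [smul_smul]; exact ha _

theorem RootL.neg {e a : V} (ha : RootL M e a) : RootL M e (-a) := fun t => by
  rw [smul_neg]; exact (ha t).neg

theorem RootL.sub {e a b : V} (ha : RootL M e a) (hb : RootL M e b) : RootL M e (a - b) := fun t => by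
  rw [smul_sub]; exact (ha t).sub (hb t)

theorem RootL.conj {e a : V} {g : orth Q} (hg : g ∈ M) (ha : RootL M e a) : RootL M (g.1 e) (g.1 a) := fun t => by
  rw [← LinearEquiv.map_smul]; exact (ha t).conj hg

theorem RootL.smul_left {e a : V} {s : F} (h : RootL M (s • e) a) (hs : s ≠ 0) : RootL M e a := fun t => by
  have := (h (s⁻¹ * t)).smul_left hs
  rwa [smul_smul, mul_inv_cancel_left₀ hs] at this

theorem RootL.symm {e a : V} (h : RootL M e a) (ha : Q a = 0) : RootL M a e := fun t => by
  rcases eq_or_ne t 0 with rfl | ht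
  · rw [zero_smul]
    exact ⟨ha, polar_zero_right Q _, by rw [eich_zero]; exact one_mem _⟩
  have h1 := (H98.SingPair.rootIn_symm (h (-t)) (by rw [QuadraticMap.map_smul, ha, smul_zero])).smul_left
    (neg_ne_zero.2 ht)
  rwa [smul_neg, neg_smul, neg_neg] at h1

theorem RootL.add_smul {e a : V} (h : RootL M e a) (s : F) : RootL M e (a + s • e) := fun t => by
  rw [smul_add, smul_smul]; exact H98.SingPair.rootIn_add_smul (h t) _

theorem RootL.self {e : V} (he : Q e = 0) (s : F) : RootL M e (s • e) := fun t => by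
  have hp : polar Q e (0 : V) = 0 := polar_zero_right Q _
  have h0 : RootIn M e (0 : V) := ⟨he, hp, by rw [eich_zero]; exact one_mem _⟩
  have := H98.SingPair.rootIn_add_smul h0 (t * s)
  rwa [zero_add, mul_smul] at this

end Root

end Cfsg.Agent.H58.TensorTwo
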