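import Cfsg.Agent.H58.TensorTwo.Basic

/-!
# Lines through a point `u ⊗ w`

An overgroup with the root group of one line through `i₁ w` other than `U ⊗ w` contains all root groups of lines
through such points, and then the whole of `Ω`.
-/

set_option autoImplicit false
set_option linter.unusedSectionVars false

namespace Cfsg.Agent.H58.TensorTwo

open QuadraticMap hiding sq
open Cfsg.Agent.H5
open scoped commutatorElement

variable {F V W : Type*} [Field F] [Finite F] [AddCommGroup V] [Module F V] [FiniteDimensional F V] [Finite V]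
  [AddCommGroup W] [Module F W] [FiniteDimensional F W]
variable {Q : QuadraticForm F V}

/-- The hypotheses. -/
structure TCtx (Q : QuadraticForm F V) (i₁ i₂ : W →ₗ[F] V) (f : W →ₗ[F] W →ₗ[F] F) (M : Subgroup (orth Q)) :
    Prop where
  split : Split Q i₁ i₂ f
  nondeg : (polarBilin Q).Nondegenerate
  dimV : 5 ≤ Module.finrank F V
  dimW : 5 ≤ Module.finrank F W
  q3 : ∃ s : F, s ≠ 0 ∧ s ≠ 1
  mem : ∀ g ∈ commutator (orth Q), Pure i₁ i₂ g → g ∈ M

namespace TCtx

variable {i₁ i₂ : W →ₗ[F] V} {f : W →ₗ[F] W →ₗ[F] F} {M : Subgroup (orth Q)} (H : TCtx Q i₁ i₂ f M)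
include H

theorem frame (α β γ δ : F) (h : α * δ - β * γ = 1) :
    TCtx Q (α • i₁ + β • i₂) (γ • i₁ + δ • i₂) f M :=
  ⟨H.split.frame α β γ δ h, H.nondeg, H.dimV, H.dimW, H.q3, fun g hg hp => H.mem g hg (H.split.pure_of_frame h hp)⟩

theorem frame_swap : TCtx Q i₂ (-i₁) f M := by
  have := H.frame 0 1 (-1) 0 (by ring)
  simpa using this

/-- The lines `U ⊗ w` lie in the overgroup. -/
theorem root_pure (w : W) (α β γ δ : F) :
    RootL M (i₁ (α • w) + i₂ (β • w)) (i₁ (γ • w) + i₂ (δ • w)) := fun t => by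
  have hS := H.split
  have e : t • (i₁ (γ • w) + i₂ (δ • w)) = i₁ ((t * γ) • w) + i₂ ((t * δ) • w) := by
    rw [smul_add, ← map_smul, ← map_smul, smul_smul, smul_smul]
  rw [e]
  have hz : ∀ a b : F, Q (i₁ (a • w) + i₂ (b • w)) = 0 := fun a b => by
    rw [hS.qf]; simp [map_smul, hS.alt]
  have hp : polar Q (i₁ (α • w) + i₂ (β • w)) (i₁ ((t * γ) • w) + i₂ ((t * δ) • w)) = 0 := by
    rw [hS.polar_mk]; simp [map_smul, hS.alt]
  refine ⟨hz _ _, hp, H.mem _ (eich_mem_commutator H.nondeg H.dimV _ _) ⟨1, 0, 0, 1, by simp, fun z => ?_⟩⟩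
  refine ⟨z + (t * (α * δ - β * γ) * f w z) • w, ?_, ?_⟩
  · rw [eich_apply (hz _ _) hp, hz, show i₁ z = i₁ z + i₂ (0 : W) by simp, hS.polar_mk, hS.polar_mk]
    simp only [map_smul, LinearMap.smul_apply, smul_eq_mul, map_zero, mul_zero, zero_mul, zero_add, add_zero,
      zero_smul, sub_zero, one_smul, map_add, hS.skew z w]
    module
  · rw [eich_apply (hz _ _) hp, hz, show i₂ z = i₁ (0 : W) + i₂ z by simp, hS.polar_mk, hS.polar_mk]
    simp only [map_smul, LinearMap.smul_apply, smul_eq_mul, map_zero, LinearMap.zero_apply, mul_zero, zero_mul,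
      zero_add, add_zero, zero_smul, sub_zero, one_smul, map_add]
    module

/-- The translation `(x, y) ↦ (x, y)` followed by the symplectic transvection at `p`. -/
theorem trans_mem (p : W) : eich Q (i₁ p) (i₂ p) ∈ M ∧ ∀ x,
    (eich Q (i₁ p) (i₂ p)).1 (i₁ x) = i₁ (x + f p x • p) := by
  have hS := H.split
  have h := H.root_pure p 1 0 0 1 1
  simp only [one_smul, zero_smul, map_zero, add_zero, zero_add] at h
  refine ⟨h.2.2, fun x => ?_⟩
  rw [eich_apply h.1 h.2.1, hS.qf₂, hS.polar₁₁, hS.polar₂₁, hS.skew x p, map_add, map_smul]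
  module

/-- The unipotent elements of the plane. -/
theorem upper_mem (s : F) : ∃ g ∈ M, ∀ x y, g.1 (i₁ x + i₂ y) = i₁ (x + s • y) + i₂ y := by
  have hS := H.split
  obtain ⟨s0, hs0, hs1⟩ := H.q3
  by_cases h2 : (2 : F) = 0
  · obtain ⟨D, hD, hDp⟩ := hS.exists_act s0 0 0 s0⁻¹ (by rw [mul_zero, sub_zero, mul_inv_cancel₀ hs0])
    have hne : s0 * s0 - 1 ≠ 0 := by
      rw [show s0 * s0 - 1 = (s0 - 1) * (s0 + 1) by ring]
      exact mul_ne_zero (sub_ne_zero.2 hs1) fun h => hs1 (by linear_combination h - h2)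
    obtain ⟨S, hS1, hSp⟩ := hS.exists_act 1 (s / (s0 * s0 - 1)) 0 1 (by ring)
    have hDi : ∀ x y, (D⁻¹).1 (i₁ x + i₂ y) = i₁ (s0⁻¹ • x) + i₂ (s0 • y) := fun x y => by
      refine ((D : V ≃ₗ[F] V).injective ?_)
      rw [orth_apply_inv_apply, hD]
      simp [smul_smul, mul_inv_cancel₀ hs0, inv_mul_cancel₀ hs0]
    have hSi : ∀ x y, (S⁻¹).1 (i₁ x + i₂ y) = i₁ (x - (s / (s0 * s0 - 1)) • y) + i₂ y := fun x y => by
      refine ((S : V ≃ₗ[F] V).injective ?_)
      rw [orth_apply_inv_apply, hS1]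
      simp
    have hDS : ∀ x y, (⁅D, S⁆).1 (i₁ x + i₂ y) = i₁ (x + s • y) + i₂ y := fun x y => by
      rw [commutatorElement_def, orth_mul_apply, orth_mul_apply, orth_mul_apply, hSi, hDi, hS1, hD]
      refine hS.eq_iff.2 ⟨?_, by simp [smul_smul, inv_mul_cancel₀ hs0]⟩
      have hne' : s0 ^ 2 - 1 ≠ 0 := by rw [pow_two]; exact hne
      simp only [zero_smul, add_zero, smul_add, smul_sub, smul_smul]
      match_scalars <;> field_simp
      all_goals ring1
    refine ⟨⁅D, S⁆, H.mem _ (Subgroup.commutator_mem_commutator (Subgroup.mem_top D) (Subgroup.mem_top S))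
      ⟨1, s, 0, 1, by simp, fun w => ⟨w, ?_, ?_⟩⟩, hDS⟩
    · simpa using hDS w 0
    · simpa using hDS 0 w
  · obtain ⟨S, hS1, hSp⟩ := hS.exists_act 1 (s / 2) 0 1 (by ring)
    have hSS : ∀ x y, (S * S).1 (i₁ x + i₂ y) = i₁ (x + s • y) + i₂ y := fun x y => by
      rw [orth_mul_apply, hS1, hS1]
      refine hS.eq_iff.2 ⟨?_, by simp⟩
      simp only [one_smul, zero_smul, zero_add]
      match_scalars <;> field_simp
      ring1
    refine ⟨S * S, H.mem _ ?_ ⟨1, s, 0, 1, by simp, fun w => ⟨w, ?_, ?_⟩⟩, hSS⟩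
    · rw [commutator_eq_ker H.nondeg (Or.inr (by have := H.dimV; omega)), MonoidHom.mem_ker, map_mul]
      exact Prod.ext (Int.units_mul_self _) (Int.units_mul_self _)
    · simpa using hSS w 0
    · simpa using hSS 0 w

/-- The unipotent elements of the plane on the other side. -/
theorem lower_mem (s : F) : ∃ g ∈ M, ∀ x y, g.1 (i₁ x + i₂ y) = i₁ x + i₂ (y + s • x) := by
  obtain ⟨g, hg, hgv⟩ := H.frame_swap.upper_mem (-s)
  refine ⟨g, hg, fun x y => ?_⟩
  have := hgv y (-x)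
  simp only [map_neg, LinearMap.neg_apply, neg_neg, smul_neg, neg_smul] at this
  rw [add_comm (i₁ x), this, add_comm]

omit H in
theorem inLine_iff {w y z : W} (hS : Split Q i₁ i₂ f) :
    InLine i₁ i₂ w (i₁ y + i₂ z) ↔ y ∈ Submodule.span F {w} ∧ z ∈ Submodule.span F {w} := by
  refine ⟨fun ⟨p, r, h⟩ => ?_, fun ⟨hy, hz⟩ => ?_⟩
  · obtain ⟨rfl, rfl⟩ := hS.comp h
    exact ⟨Submodule.smul_mem _ _ (Submodule.mem_span_singleton_self w),
      Submodule.smul_mem _ _ (Submodule.mem_span_singleton_self w)⟩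
  · obtain ⟨p, rfl⟩ := Submodule.mem_span_singleton.1 hy
    obtain ⟨r, rfl⟩ := Submodule.mem_span_singleton.1 hz
    exact ⟨p, r, rfl⟩

omit H in
theorem zero_root (a : V) : RootL M (0 : V) a := fun t => by
  have hp : polar Q (0 : V) (t • a) = 0 := polar_zero_left Q _
  refine ⟨QuadraticMap.map_zero Q, hp, ?_⟩
  rw [show eich Q (0 : V) (t • a) = 1 from orth_ext fun x => by
    rw [eich_apply (QuadraticMap.map_zero Q) hp]; simp]
  exact one_mem _

omit H in
theorem smul_center {e a : V} {s : F} (h : RootL M e a) (hs : s ≠ 0) : RootL M (s • e) a :=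
  RootL.smul_left (s := s⁻¹) (by rwa [inv_smul_smul₀ hs]) (inv_ne_zero hs)

/-- A line through `i₁ w` inside `i₁ W` gives all of them. -/
theorem perp_all {w y : W} (ha : RootL M (i₁ w) (i₁ y)) (hy : y ∉ Submodule.span F {w}) {p : W}
    (hp : f w p = 0) : RootL M (i₁ w) (i₁ p) := by
  have hS := H.split
  have key : ∀ p : W, f w p = 0 → f p y ≠ 0 → RootL M (i₁ w) (i₁ p) := fun p hp hpy => by
    obtain ⟨hm, hv⟩ := H.trans_mem p
    have h := ha.conj hm
    rw [hv, hv, hS.skew p w, hp, neg_zero, zero_smul, add_zero] at h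
    have h' := (h.sub ha).smul (f p y)⁻¹
    rwa [map_add, add_sub_cancel_left, ← map_smul, smul_smul, inv_mul_cancel₀ hpy, one_smul] at h'
  by_cases hpy : f p y = 0
  · obtain ⟨p0, h0, h1⟩ := hS.exists_val₁ hy
    have h1' : f p0 y = -1 := by rw [hS.skew p0 y, h1]
    have hs := (key (p + p0) (by rw [map_add, hp, h0, add_zero]) (by
      rw [map_add, LinearMap.add_apply, hpy, zero_add, h1']; exact neg_ne_zero.2 one_ne_zero)).sub
      (key p0 h0 (by rw [h1']; exact neg_ne_zero.2 one_ne_zero))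
    rwa [map_add, add_sub_cancel_right] at hs
  · exact key p hp hpy

/-- A second line through `i₁ w` gives all lines through `i₁ w` inside `i₁ W`. -/
theorem exists_inside {w y z : W} (ha : RootL M (i₁ w) (i₁ y + i₂ z))
    (hout : ¬ InLine i₁ i₂ w (i₁ y + i₂ z)) {p : W} (hp : f w p = 0) : RootL M (i₁ w) (i₁ p) := by
  have hS := H.split
  by_cases hz : z ∈ Submodule.span F {w}
  · obtain ⟨c, rfl⟩ := Submodule.mem_span_singleton.1 hz
    have h := ha.sub (by simpa using H.root_pure w 1 0 0 c)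
    rw [map_smul, add_sub_cancel_right] at h
    exact H.perp_all h (fun hy => hout ((inLine_iff hS).2 ⟨hy, hz⟩)) hp
  · obtain ⟨g, hg, hgv⟩ := H.upper_mem 1
    have h := ha.conj hg
    rw [show g.1 (i₁ w) = i₁ w by simpa using hgv w 0, hgv, one_smul] at h
    have h' := h.sub ha
    rw [add_sub_add_right_eq_sub, map_add, add_sub_cancel_left] at h'
    exact H.perp_all h' hz hp

/-- All lines inside `i₁ W`. -/
theorem all_inside {w : W} (hw : w ≠ 0) (h : ∀ p, f w p = 0 → RootL M (i₁ w) (i₁ p)) {v p : W}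
    (hp : f v p = 0) : RootL M (i₁ v) (i₁ p) := by
  have hS := H.split
  by_cases hv0 : v = 0
  · rw [hv0, map_zero]; exact zero_root _
  have step : ∀ {w v : W}, (∀ p, f w p = 0 → RootL M (i₁ w) (i₁ p)) → f w v = 0 →
      w ∉ Submodule.span F {v} → ∀ p, f v p = 0 → RootL M (i₁ v) (i₁ p) :=
    fun {w v} h hwv hwv' p hp => H.perp_all ((h v hwv).symm (hS.qf₁ v)) hwv' hp
  by_cases hvw : w ∈ Submodule.span F {v}
  · obtain ⟨c, rfl⟩ := Submodule.mem_span_singleton.1 hvw
    have hc : c ≠ 0 := fun hc => hw (by rw [hc, zero_smul])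
    have h' := h p (by rw [map_smul, LinearMap.smul_apply, hp, smul_zero])
    rw [map_smul] at h'
    exact h'.smul_left hc
  by_cases hperp : f w v = 0
  · exact step h hperp hvw p hp
  obtain ⟨q, h1, h2, h3⟩ := hS.exists_perp H.dimW w v
  refine step (w := q) (step h h1 ?_) (by rw [hS.skew q v, h2, neg_zero]) ?_ p hp
  · intro hmem
    obtain ⟨c, hc⟩ := Submodule.mem_span_singleton.1 hmem
    refine h3 ?_
    have hc0 : c ≠ 0 := fun e => hw (by rw [← hc, e, zero_smul])
    rw [← inv_smul_smul₀ hc0 q, hc]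
    exact Submodule.smul_mem _ _ (Submodule.subset_span (by simp))
  · exact fun hmem => h3 (Submodule.span_mono (by simp) hmem)

/-- The lines inside `i₂ W`. -/
theorem inside_two (h : ∀ v p, f v p = 0 → RootL M (i₁ v) (i₁ p)) {v p : W} (hp : f v p = 0) :
    RootL M (i₂ v) (i₂ p) := by
  obtain ⟨g, hg, hgv⟩ := H.lower_mem (-1)
  obtain ⟨g', hg', hgv'⟩ := H.upper_mem 1
  have e : ∀ x, g'.1 (g.1 (i₁ x)) = (-1 : F) • i₂ x := fun x => by
    rw [show g.1 (i₁ x) = i₁ x + i₂ (-x) by simpa using hgv x 0, hgv']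
    simp
  have h' := ((h v p hp).conj hg).conj hg'
  rw [e, e] at h'
  have h2 := (h'.smul_left (neg_ne_zero.2 one_ne_zero)).smul (-1)
  rwa [smul_smul, neg_one_mul, neg_neg, one_smul] at h2

/-- The lines joining the layers. -/
theorem mixed (h : ∀ v p, f v p = 0 → RootL M (i₁ v) (i₁ p)) {w r : W} (hwr : f w r = 0) :
    RootL M (i₁ w) (i₂ r) := by
  have hS := H.split
  by_cases hw0 : w = 0
  · rw [hw0, map_zero]; exact zero_root _
  obtain ⟨p, h1, h2, h3⟩ := hS.exists_perp H.dimW w r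
  obtain ⟨u, hu1, hu2, hu3⟩ := hS.exists_val₂ h3
  have hg := (h p w (by rw [hS.skew p w, h1, neg_zero])).root
  have hru : RootL M (i₂ r) (i₂ u) := H.inside_two h hu2
  have e1 : (eich Q (i₁ p) (i₁ w)).1 (i₂ r) = i₂ r := by
    rw [eich_apply hg.1 hg.2.1, hS.qf₁, hS.polar₁₂, hS.polar₁₂, hwr, hS.skew p r, h2]
    simp
  have e2 : (eich Q (i₁ p) (i₁ w)).1 (i₂ u) = i₂ u + i₁ w := by
    rw [eich_apply hg.1 hg.2.1, hS.qf₁, hS.polar₁₂, hS.polar₁₂, hu3, hu1]
    simp
  have h4 := (hru.conj hg.2.2)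
  rw [e1, e2] at h4
  have h5 := h4.sub hru
  rw [add_sub_cancel_left] at h5
  exact h5.symm (hS.qf₁ w)

/-- A line inside `i₁ W` through points that are not orthogonal in `W`. -/
theorem nonperp (h : ∀ v p, f v p = 0 → RootL M (i₁ v) (i₁ p)) {v : W} (hv : v ≠ 0) :
    ∃ x, f v x = 1 ∧ RootL M (i₁ v) (i₁ x) := by
  have hS := H.split
  obtain ⟨w, h1, -, hw⟩ := hS.exists_perp H.dimW v v
  simp only [Set.pair_eq_singleton] at hw
  have hwv : v - w ∉ Submodule.span F {w} := fun hmem => by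
    obtain ⟨c, hc⟩ := Submodule.mem_span_singleton.1 hmem
    have hvc : v = (c + 1) • w := by rw [add_smul, one_smul, hc, sub_add_cancel]
    refine hw ?_
    have hc0 : c + 1 ≠ 0 := fun e => hv (by rw [hvc, e, zero_smul])
    rw [← inv_smul_smul₀ hc0 w, ← hvc]
    exact Submodule.smul_mem _ _ (Submodule.mem_span_singleton_self v)
  have hwv' : w ∉ Submodule.span F {v - w} := fun hmem => by
    obtain ⟨c, hc⟩ := Submodule.mem_span_singleton.1 hmem
    have hw0 : w ≠ 0 := fun e => hw (by rw [e]; exact zero_mem _)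
    have hc0 : c ≠ 0 := fun e => hw0 (by rw [← hc, e, zero_smul])
    refine hwv (Submodule.mem_span_singleton.2 ⟨c⁻¹, ?_⟩)
    nth_rw 1 [← hc]
    rw [inv_smul_smul₀ hc0]
  have hperp : f (v - w) w = 0 := by rw [map_sub, LinearMap.sub_apply, h1, hS.alt, sub_zero]
  obtain ⟨r, hr1, hr2⟩ := hS.exists_val₁ hwv
  obtain ⟨x, hx1, hx2⟩ := hS.exists_val₁ hwv'
  have hg := ((H.mixed h hr1).symm (hS.qf₂ r)).root
  have e : ∀ z, (eich Q (i₂ r) (i₁ w)).1 (i₁ z) = i₁ (z + f z r • w) := fun z => by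
    rw [eich_apply hg.1 hg.2.1, hS.qf₁, hS.polar₂₁, hS.polar₁₁, map_add, map_smul]
    simp
  have h4 := (h (v - w) x hx1).conj hg.2.2
  rw [e, e, hr2, one_smul, sub_add_cancel] at h4
  refine ⟨_, ?_, h4⟩
  have hvx : f v x = 1 := by
    rw [map_sub, LinearMap.sub_apply] at hx1
    linear_combination hx1 + hx2
  rw [map_add, map_smul, h1, smul_zero, add_zero, hvx]

/-- The whole root group at a point `i₁ v`. -/
theorem full (h : ∀ v p, f v p = 0 → RootL M (i₁ v) (i₁ p)) {v : W} (hv : v ≠ 0) : FullRoot M (i₁ v) := by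
  have hS := H.split
  refine ⟨hS.qf₁ v, fun a ha => ?_⟩
  obtain ⟨y, z, rfl⟩ := hS.span a
  rw [hS.polar_i₁] at ha
  obtain ⟨x, hx, hxr⟩ := H.nonperp h hv
  have h1 := h v (y - f v y • x) (by rw [map_sub, map_smul, hx, smul_eq_mul, mul_one, sub_self])
  have h2 := (h1.add (hxr.smul (f v y))).add (H.mixed h ha)
  rw [← map_smul, ← map_add, sub_add_cancel] at h2
  exact h2.root.2.2

/-- A second line through a point of a layer generates `Ω`. -/
theorem omega_le_of_line {w y z : W} (hw : w ≠ 0) (ha : RootL M (i₁ w) (i₁ y + i₂ z))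
    (hout : ¬ InLine i₁ i₂ w (i₁ y + i₂ z)) : commutator (orth Q) ≤ M := by
  have hS := H.split
  have h : ∀ v p, f v p = 0 → RootL M (i₁ v) (i₁ p) := fun v p hp =>
    H.all_inside hw (fun p hp => H.exists_inside ha hout hp) hp
  obtain ⟨r, hr⟩ : ∃ r, f w r = 1 := by
    by_contra hc
    refine hw (hS.nd w fun u => by_contra fun hu => hc ⟨(f w u)⁻¹ • u, ?_⟩)
    rw [map_smul, smul_eq_mul, inv_mul_cancel₀ hu]
  have hr0 : r ≠ 0 := fun e => one_ne_zero (α := F) (by rw [← hr, e, map_zero])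
  have h' : ∀ v p, f v p = 0 → RootL M (i₂ v) (i₂ p) := fun v p hp => H.inside_two h hp
  refine commutator_le_of_fullRoot H.nondeg H.dimV (H.full h hw) (H.frame_swap.full h' hr0) ?_
  rw [hS.polar₁₂, hr]
  exact one_ne_zero

end TCtx

end Cfsg.Agent.H58.TensorTwo
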