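import Cfsg.Agent.H58.TensorTwo.Lines

/-!
# The stabiliser of `U ⊗ W` is maximal

An element not preserving the decomposition maps some line `U ⊗ w` to a line off the family; conjugates of that line
give a second line through a point `u ⊗ v`.
-/

set_option autoImplicit false
set_option linter.unusedSectionVars false

namespace Cfsg.Agent.H58.TensorTwo

open QuadraticMap hiding sq
open Cfsg.Agent.H5

variable {F V W : Type*} [Field F] [Finite F] [AddCommGroup V] [Module F V] [FiniteDimensional F V] [Finite V]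
  [AddCommGroup W] [Module F W] [FiniteDimensional F W]
variable {Q : QuadraticForm F V}

/-- The product of two commuting root elements of lines in one totally singular subspace. -/
theorem line_apply {e a x : V} (he : Q e = 0) (hea : polar Q e a = 0) (ha : Q a = 0) (t : F) :
    (eich Q e (t • a)).1 x = x + t • (polar Q e x • a - polar Q a x • e) := by
  rw [eich_apply he (by rw [polar_smul_right, hea, smul_zero]), QuadraticMap.map_smul, ha, smul_zero,
    polar_smul_left, smul_eq_mul]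
  module

namespace TCtx

variable {i₁ i₂ : W →ₗ[F] V} {f : W →ₗ[F] W →ₗ[F] F} {M : Subgroup (orth Q)} (H : TCtx Q i₁ i₂ f M)
include H

/-- A line off the family through a point `(α u + β u') ⊗ w`. -/
theorem omega_le_of_point {α β : F} {w y z : W} (hab : α ≠ 0 ∨ β ≠ 0) (hw : w ≠ 0)
    (ha : RootL M (i₁ (α • w) + i₂ (β • w)) (i₁ y + i₂ z))
    (hout : ¬ InLine i₁ i₂ w (i₁ y + i₂ z)) : commutator (orth Q) ≤ M := by
  obtain ⟨γ, δ, h⟩ : ∃ γ δ, α * δ - β * γ = 1 := by
    by_cases hα : α = 0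
    · have hβ := hab.resolve_left (not_not.2 hα)
      exact ⟨-β⁻¹, 0, by rw [mul_zero, zero_sub, mul_neg, neg_neg, mul_inv_cancel₀ hβ]⟩
    · exact ⟨0, α⁻¹, by rw [mul_zero, sub_zero, mul_inv_cancel₀ hα]⟩
  have H' := H.frame α β γ δ h
  have e : ∀ v, (α • i₁ + β • i₂) v = i₁ (α • v) + i₂ (β • v) := fun v => by simp
  obtain ⟨y', z', hyz⟩ := H'.split.span (i₁ y + i₂ z)
  refine H'.omega_le_of_line (y := y') (z := z') hw (by rw [e, hyz]; exact ha) fun ⟨p, r, hpr⟩ => hout ?_
  refine ⟨p * α + r * γ, p * β + r * δ, ?_⟩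
  rw [← hyz, hpr]
  simp only [LinearMap.add_apply, LinearMap.smul_apply, map_smul]
  module

/-- A line off the family whose scalar parts are dependent. -/
theorem omega_le_of_dep {x₁ y₁ x₂ y₂ v : W} (hx : x₁ ∈ Submodule.span F {v}) (hy : y₁ ∈ Submodule.span F {v})
    (hne : i₁ x₁ + i₂ y₁ ≠ 0) (hL : RootL M (i₁ x₁ + i₂ y₁) (i₁ x₂ + i₂ y₂))
    (hout : ¬ (InLine i₁ i₂ v (i₁ x₁ + i₂ y₁) ∧ InLine i₁ i₂ v (i₁ x₂ + i₂ y₂))) :
    commutator (orth Q) ≤ M := by
  obtain ⟨α, rfl⟩ := Submodule.mem_span_singleton.1 hx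
  obtain ⟨β, rfl⟩ := Submodule.mem_span_singleton.1 hy
  have hab : α ≠ 0 ∨ β ≠ 0 := by
    by_contra hc
    push Not at hc
    exact hne (by rw [hc.1, hc.2]; simp)
  have hv : v ≠ 0 := fun e => hne (by rw [e]; simp)
  exact H.omega_le_of_point hab hv hL fun h => hout ⟨⟨α, β, rfl⟩, h⟩

/-- A line off the family in `U ⊗ S` for a totally isotropic plane `S` gives one inside a layer. -/
theorem inside_of_flat {x₁ y₁ x₂ y₂ : W} (hL : RootL M (i₁ x₁ + i₂ y₁) (i₁ x₂ + i₂ y₂))
    (hzero : ∀ u ∈ ({x₁, y₁, x₂, y₂} : Set W), ∀ v ∈ ({x₁, y₁, x₂, y₂} : Set W), f u v = 0) :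
    RootL M (i₁ y₁) (i₁ y₂) := fun s => by
  have hS := H.split
  obtain ⟨l, hl0, hl1⟩ := H.q3
  simp only [Set.mem_insert_iff, Set.mem_singleton_iff, forall_eq_or_imp, forall_eq] at hzero
  obtain ⟨⟨a11, a12, a13, a14⟩, ⟨a21, a22, a23, a24⟩, ⟨a31, a32, a33, a34⟩, a41, a42, a43, a44⟩ := hzero
  -- all these vectors are mutually orthogonal and singular
  set e : F → V := fun c => i₁ (x₁ + c • y₁) + i₂ y₁ with hedef
  set a : F → V := fun c => i₁ (x₂ + c • y₂) + i₂ y₂ with hadef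
  have hQe : ∀ c, Q (e c) = 0 := fun c => by simp only [hedef]; rw [hS.qf]; simp [a12, a22]
  have hQa : ∀ c, Q (a c) = 0 := fun c => by simp only [hadef]; rw [hS.qf]; simp [a34, a44]
  have hee : ∀ c d, polar Q (e c) (e d) = 0 := fun c d => by simp only [hedef]; rw [hS.polar_mk]; simp [a12, a22]
  have haa : ∀ c d, polar Q (a c) (a d) = 0 := fun c d => by simp only [hadef]; rw [hS.polar_mk]; simp [a34, a44]
  have hea : ∀ c d, polar Q (e c) (a d) = 0 := fun c d => by simp only [hedef, hadef]; rw [hS.polar_mk]; simp [a14, a24, a32, a42]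
  have hae : ∀ c d, polar Q (a c) (e d) = 0 := fun c d => by rw [polar_comm, hea]
  have hmem : ∀ c t, eich Q (e c) (t • a c) ∈ M := fun c t => by
    obtain ⟨g, hg, hgv⟩ := H.upper_mem c
    have h := hL.conj hg t
    rw [hgv, hgv] at h
    exact h.2.2
  have hy : polar Q (i₁ y₁) (i₁ y₂) = 0 := hS.polar₁₁ _ _
  refine ⟨hS.qf₁ _, by rw [polar_smul_right, hy, smul_zero], ?_⟩
  have hden : l * l - l ≠ 0 := by
    rw [show l * l - l = l * (l - 1) by ring]
    exact mul_ne_zero hl0 (sub_ne_zero.2 hl1)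
  set t := s / (l * l - l) with ht
  suffices he : eich Q (i₁ y₁) (s • i₁ y₂) =
      eich Q (e l) (t • a l) * (eich Q (e 1) ((-(l * t)) • a 1) * eich Q (e 0) ((l * t - t) • a 0)) by
    rw [he]
    exact M.mul_mem (hmem _ _) (M.mul_mem (hmem _ _) (hmem _ _))
  refine orth_ext fun v => ?_
  obtain ⟨x, y, rfl⟩ := hS.span v
  rw [orth_mul_apply, orth_mul_apply, line_apply (hS.qf₁ _) hy (hS.qf₁ _),
    line_apply (hQe _) (hea _ _) (hQa _), line_apply (hQe _) (hea _ _) (hQa _),
    line_apply (hQe _) (hea _ _) (hQa _)]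
  simp only [polar_add_right, polar_sub_right, polar_smul_right, hee, haa, hea, hae, smul_zero, add_zero,
    sub_zero, smul_eq_mul, mul_zero]
  simp only [hedef, hadef, hS.polar₁₁, hS.polar₁₂, polar_add_left, polar_add_right, hS.polar₂₁, hS.polar₂₂,
    map_add, map_smul, polar_smul_left, mul_zero, smul_zero, LinearMap.add_apply, LinearMap.smul_apply, smul_eq_mul, zero_smul, add_zero, zero_add]
  rw [ht]
  match_scalars <;> field_simp <;> ring1

/-- An element not preserving the decomposition moves a line off the family. -/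
theorem exists_line_off {g : orth Q} (hg : ¬ Pure i₁ i₂ g) :
    ∃ w : W, w ≠ 0 ∧ ∀ v, ¬ (InLine i₁ i₂ v (g.1 (i₁ w)) ∧ InLine i₁ i₂ v (g.1 (i₂ w))) := by
  have hS := H.split
  by_contra hc
  push Not at hc
  refine hg ?_
  obtain ⟨w0, -, -, hw0'⟩ := hS.exists_perp H.dimW (0 : W) 0
  have hw0 : w0 ≠ 0 := fun e => hw0' (by rw [e]; exact zero_mem _)
  obtain ⟨v0, ⟨a, c, ha⟩, b, d, hb⟩ := hc w0 hw0
  have hinj : ∀ {v}, g.1 v = 0 → v = 0 := fun {v} h => g.1.map_eq_zero_iff.1 h
  have hne : ∀ {p q : F} {w : W}, g.1 (i₁ (p • w) + i₂ (q • w)) = 0 → w ≠ 0 → p = 0 ∧ q = 0 :=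
    fun {p q w} h hw => by
      obtain ⟨h1, h2⟩ := hS.inj _ _ (hinj h)
      exact ⟨(smul_eq_zero.1 h1).resolve_right hw, (smul_eq_zero.1 h2).resolve_right hw⟩
  have hdet : a * d - b * c ≠ 0 := by
    intro h0
    by_cases h : c = 0 ∧ d = 0
    · obtain ⟨rfl, rfl⟩ := h
      by_cases hab : a = 0 ∧ b = 0
      · obtain ⟨rfl, rfl⟩ := hab
        obtain ⟨h1, -⟩ := hne (p := 1) (q := 0) (by simpa using ha) hw0
        exact one_ne_zero h1
      · have := hne (p := b) (q := -a) (w := w0) (by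
          rw [map_smul, map_smul, map_add, LinearEquiv.map_smul, LinearEquiv.map_smul, ha, hb]
          simp only [map_smul]; module) hw0
        exact hab ⟨neg_eq_zero.1 this.2, this.1⟩
    · have := hne (p := d) (q := -c) (w := w0) (by
        rw [map_smul, map_smul, map_add, LinearEquiv.map_smul, LinearEquiv.map_smul, ha, hb]
        simp only [map_smul]
        linear_combination (norm := module) congrArg (fun z => z • i₁ v0) h0) hw0
      exact h ⟨neg_eq_zero.1 this.2, this.1⟩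
  have hv0 : v0 ≠ 0 := by
    rintro rfl
    obtain ⟨h1, -⟩ := hne (p := 1) (q := 0) (w := w0) (by simp only [one_smul, zero_smul, map_zero, add_zero]; simpa using ha) hw0
    exact one_ne_zero h1
  refine ⟨a, b, c, d, hdet, fun w => ?_⟩
  by_cases hw : w ∈ Submodule.span F {w0}
  · obtain ⟨s, rfl⟩ := Submodule.mem_span_singleton.1 hw
    refine ⟨s • v0, ?_, ?_⟩
    · rw [map_smul, LinearEquiv.map_smul, ha]; simp only [map_smul]; module
    · rw [map_smul, LinearEquiv.map_smul, hb]; simp only [map_smul]; module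
  obtain ⟨v, ⟨p, r, hp⟩, q, s, hq⟩ := hc w fun e => hw (by rw [e]; exact zero_mem _)
  obtain ⟨v', ⟨p', r', hp'⟩, q', s', hq'⟩ := hc (w + w0) fun e => hw (by
    rw [eq_neg_of_add_eq_zero_left e]; exact Submodule.neg_mem _ (Submodule.mem_span_singleton_self w0))
  rw [map_add, map_add, hp, ha] at hp'
  rw [map_add, map_add, hq, hb] at hq'
  have hp1 : p' • v' = p • v + a • v0 ∧ r' • v' = r • v + c • v0 := by
    refine hS.eq_iff.1 ?_
    rw [← hp', map_add, map_add]; abel
  have hq1 : q' • v' = q • v + b • v0 ∧ s' • v' = s • v + d • v0 := by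
    refine hS.eq_iff.1 ?_
    rw [← hq', map_add, map_add]; abel
  -- the new vector is independent of the old one
  have hvv : v ∉ Submodule.span F {v0} := fun hmem => by
    obtain ⟨k, hk⟩ := Submodule.mem_span_singleton.1 hmem
    set x := (p * k * d - r * k * b) / (a * d - b * c) with hxdef
    set y := (r * k * a - p * k * c) / (a * d - b * c) with hydef
    have h1 : g.1 (i₁ (w - x • w0) + i₂ (-(y • w0))) = 0 := by
      rw [map_add, map_sub, map_neg, map_neg, map_smul, map_smul, map_sub, LinearEquiv.map_smul,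
        LinearEquiv.map_smul, hp, ha, hb, ← hk]
      simp only [map_smul, smul_add, smul_smul]
      have e1 : x * a + y * b = p * k := by
        rw [hxdef, hydef, div_mul_eq_mul_div, div_mul_eq_mul_div, ← add_div, div_eq_iff hdet]; ring
      have e2 : x * c + y * d = r * k := by
        rw [hxdef, hydef, div_mul_eq_mul_div, div_mul_eq_mul_div, ← add_div, div_eq_iff hdet]; ring
      match_scalars
      · linear_combination -e1
      · linear_combination -e2
    exact hw (Submodule.mem_span_singleton.2 ⟨x, (sub_eq_zero.1 (hS.inj _ _ (hinj h1)).1).symm⟩)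
  have hind : ∀ {m n : F}, m • v + n • v0 = 0 → m = 0 ∧ n = 0 := fun {m n} h => by
    by_cases hm : m = 0
    · rw [hm, zero_smul, zero_add, smul_eq_zero] at h
      exact ⟨hm, h.resolve_right hv0⟩
    · exact absurd (Submodule.mem_span_singleton.2 ⟨-(m⁻¹ * n), by
        linear_combination (norm := module) congrArg (fun z => m⁻¹ • z) h.symm +
          congrArg (fun z => z • v) (inv_mul_cancel₀ hm)⟩) hvv
  -- comparing the coefficients
  have key : ∀ {m' m m0 X' X X0 : F}, m0 ≠ 0 → m' • v' = m • v + m0 • v0 → X' • v' = X • v + X0 • v0 →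
      X = m / m0 * X0 := fun {m' m m0 X' X X0} hm0 h1 h2 => by
    have hm' : m' ≠ 0 := fun e => hm0 (hind (m := m) (n := m0) (by rw [← h1, e, zero_smul])).2
    obtain ⟨e1, e2⟩ := hind (m := X' * m - m' * X) (n := X' * m0 - m' * X0) (by
      linear_combination (norm := module) m' • h2 - X' • h1)
    field_simp
    refine mul_left_cancel₀ hm' ?_
    linear_combination m * e2 - m0 * e1
  obtain ⟨κ, hκ⟩ : ∃ κ, p = κ * a ∧ r = κ * c ∧ q = κ * b ∧ s = κ * d := by
    by_cases ha0 : a = 0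
    · have hc0 : c ≠ 0 := fun e => hdet (by rw [ha0, e, zero_mul, mul_zero, sub_zero])
      exact ⟨r / c, key hc0 hp1.2 hp1.1, key hc0 hp1.2 hp1.2, key hc0 hp1.2 hq1.1, key hc0 hp1.2 hq1.2⟩
    · exact ⟨p / a, key ha0 hp1.1 hp1.1, key ha0 hp1.1 hp1.2, key ha0 hp1.1 hq1.1, key ha0 hp1.1 hq1.2⟩
  obtain ⟨rfl, rfl, rfl, rfl⟩ := hκ
  refine ⟨κ • v, ?_, ?_⟩
  · rw [hp, smul_smul, smul_smul, mul_comm κ, mul_comm κ]
  · rw [hq, smul_smul, smul_smul, mul_comm κ, mul_comm κ]

/-- An element not preserving the decomposition generates `Ω` with the elements preserving it. -/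
theorem omega_le {g : orth Q} (hg : g ∈ M) (hp : ¬ Pure i₁ i₂ g) : commutator (orth Q) ≤ M := by
  have hS := H.split
  obtain ⟨w, hw, hoff⟩ := H.exists_line_off hp
  obtain ⟨x₁, y₁, he⟩ := hS.span (g.1 (i₁ w))
  obtain ⟨x₂, y₂, ha⟩ := hS.span (g.1 (i₂ w))
  have hL : RootL M (i₁ x₁ + i₂ y₁) (i₁ x₂ + i₂ y₂) := by
    have := (H.root_pure w 1 0 0 1).conj hg
    simp only [one_smul, zero_smul, map_zero, add_zero, zero_add] at this
    rwa [he, ha]
  have hne : i₁ x₁ + i₂ y₁ ≠ 0 := fun h => by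
    rw [he, LinearEquiv.map_eq_zero_iff] at h
    exact hw (hS.inj w 0 (by rwa [map_zero, add_zero])).1
  by_cases hdep : ∃ v, x₁ ∈ Submodule.span F {v} ∧ y₁ ∈ Submodule.span F {v}
  · obtain ⟨v, hx, hy⟩ := hdep
    exact H.omega_le_of_dep hx hy hne hL (by rw [he, ha]; exact hoff v)
  push Not at hdep
  have hx0 : x₁ ≠ 0 := fun h => hdep y₁ (by rw [h]; exact zero_mem _) (Submodule.mem_span_singleton_self _)
  have hy0 : y₁ ≠ 0 := fun h => hdep x₁ (Submodule.mem_span_singleton_self _) (by rw [h]; exact zero_mem _)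
  have hroot := hL.root
  by_cases hu : ∃ u, f x₁ u = 0 ∧ f y₁ u = 0 ∧ (f x₂ u ≠ 0 ∨ f u y₂ ≠ 0)
  · obtain ⟨u, hu1, hu2, hu3⟩ := hu
    have hu0 : u ≠ 0 := by
      rintro rfl
      simp at hu3
    obtain ⟨γ, δ, hd⟩ : ∃ γ δ, f x₂ u * δ - -f u y₂ * γ = 1 := by
      by_cases h : f u y₂ = 0
      · exact ⟨0, (f x₂ u)⁻¹, by rw [mul_zero, sub_zero, mul_inv_cancel₀ (hu3.resolve_right (not_not.2 h))]⟩
      · exact ⟨(f u y₂)⁻¹, 0, by rw [mul_zero, zero_sub, neg_mul, neg_neg, mul_inv_cancel₀ h]⟩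
    have happly : ∀ p q : F, (eich Q (i₁ x₁ + i₂ y₁) (i₁ x₂ + i₂ y₂)).1 (i₁ (p • u) + i₂ (q • u)) =
        i₁ (p • u) + i₂ (q • u) - (p * f u y₂ + q * f x₂ u) • (i₁ x₁ + i₂ y₁) := fun p q => by
      rw [eich_apply hroot.1 hroot.2.1, hS.polar_mk, hS.polar_mk]
      simp only [map_smul, LinearMap.smul_apply, smul_eq_mul, hu1, hS.skew u y₁, hu2]
      module
    have h1 := H.root_pure u (f x₂ u) (-f u y₂) γ δ
    have h2 := h1.conj hroot.2.2
    rw [happly, happly, show f x₂ u * f u y₂ + -f u y₂ * f x₂ u = 0 by ring,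
      show γ * f u y₂ + δ * f x₂ u = 1 by linear_combination hd, zero_smul, sub_zero, one_smul] at h2
    have h3 := (h1.sub h2)
    rw [sub_sub_cancel] at h3
    refine H.omega_le_of_point ?_ hu0 h3 fun hin => ?_
    · exact hu3.imp_right neg_ne_zero.2
    · obtain ⟨hx, hy⟩ := (inLine_iff hS).1 hin
      exact hdep u hx hy
  push Not at hu
  have hspan : x₂ ∈ Submodule.span F {x₁, y₁} ∧ y₂ ∈ Submodule.span F {x₁, y₁} := by
    constructor <;> by_contra hc
    · obtain ⟨u, h1, h2, h3⟩ := hS.exists_val₂ hc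
      exact one_ne_zero (α := F) (by rw [← h3, (hu u h1 h2).1])
    · obtain ⟨u, h1, h2, h3⟩ := hS.exists_val₂ hc
      exact one_ne_zero (α := F) (by rw [← h3, hS.skew y₂ u, (hu u h1 h2).2, neg_zero])
  have hxy : f x₁ y₁ = 0 := by
    have := hroot.1
    rwa [hS.qf] at this
  obtain ⟨⟨p, q, hx2⟩, r, ν, hy2⟩ := hspan.imp Submodule.mem_span_pair.1 Submodule.mem_span_pair.1
  by_cases hr : r = 0
  · rw [hr, zero_smul, zero_add] at hy2
    have h1 := hL.add_smul (-ν)
    have e : i₁ x₂ + i₂ y₂ + (-ν) • (i₁ x₁ + i₂ y₁) = i₁ (x₂ - ν • x₁) := by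
      rw [← hy2, map_sub, map_smul, map_smul]
      module
    rw [e] at h1
    have hx' : x₂ - ν • x₁ ≠ 0 := fun h => by
      rw [h, map_zero, ha, he, ← LinearEquiv.map_smul, ← map_add, LinearEquiv.map_eq_zero_iff] at e
      have := (hS.inj (-(ν • w)) w (by rw [map_neg, map_smul, ← neg_smul, add_comm]; exact e)).2
      exact hw this
    refine H.omega_le_of_line hx' (h1.symm (hS.qf₁ _)) fun hin => ?_
    obtain ⟨hx, hy⟩ := (inLine_iff hS).1 hin
    exact hdep _ hx hy
  · have hzero : ∀ u ∈ ({x₁, y₁, x₂, y₂} : Set W), ∀ v ∈ ({x₁, y₁, x₂, y₂} : Set W), f u v = 0 := by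
      have hs : ∀ u ∈ ({x₁, y₁, x₂, y₂} : Set W), ∃ k l : F, k • x₁ + l • y₁ = u := by
        rintro u (rfl | rfl | rfl | rfl)
        exacts [⟨1, 0, by simp⟩, ⟨0, 1, by simp⟩, ⟨p, q, hx2⟩, ⟨r, ν, hy2⟩]
      intro u hu v hv
      obtain ⟨k, l, rfl⟩ := hs u hu
      obtain ⟨k', l', rfl⟩ := hs v hv
      simp [hS.alt, hxy, hS.skew y₁ x₁]
    have h1 := H.inside_of_flat hL hzero
    refine H.omega_le_of_line (z := 0) hy0 (y := y₂) (by rwa [map_zero, add_zero]) fun hin => ?_
    obtain ⟨k, hk⟩ := Submodule.mem_span_singleton.1 ((inLine_iff hS).1 hin).1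
    refine hdep y₁ (Submodule.mem_span_singleton.2 ⟨(k - ν) / r, ?_⟩) (Submodule.mem_span_singleton_self _)
    rw [← hy2] at hk
    rw [div_eq_inv_mul, mul_smul, sub_smul, hk, add_sub_cancel_right, inv_smul_smul₀ hr]

end TCtx

end Cfsg.Agent.H58.TensorTwo
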