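import Cfsg.Agent.H58.TensorTwo.Main
import Cfsg.Agent.H19.TensorRank
import Cfsg.Agent.H5.OmegaGL

/-!
# The stabiliser of `F² ⊗ F^m` inside `Ω`

Coordinates for the tensor decomposition, and maximality of its stabiliser for `q ≥ 3` and `m ≥ 5`.
-/

set_option autoImplicit false
set_option linter.unusedSectionVars false

namespace Cfsg.Agent.H58.TensorTwo

open QuadraticMap hiding sq
open Cfsg.Agent.H5
open Matrix
open scoped Kronecker

variable {F : Type*} [Field F] {n m : ℕ}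

/-- `u_k ⊗ w` in coordinates. -/
def layer (k : Fin 2) : (Fin m → F) →ₗ[F] (Fin 2 × Fin m → F) where
  toFun w p := if p.1 = k then w p.2 else 0
  map_add' w w' := funext fun p => by by_cases h : p.1 = k <;> simp [h]
  map_smul' c w := funext fun p => by by_cases h : p.1 = k <;> simp [h]

theorem layer_apply (k : Fin 2) (w : Fin m → F) (i : Fin 2) (j : Fin m) :
    layer k w (i, j) = if i = k then w j else 0 := rfl

theorem kron_layer (A : Matrix (Fin 2) (Fin 2) F) (B : Matrix (Fin m) (Fin m) F) (k : Fin 2) (w : Fin m → F) :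
    (A ⊗ₖ B) *ᵥ layer k w = layer 0 (A 0 k • B *ᵥ w) + layer 1 (A 1 k • B *ᵥ w) := by
  funext p
  obtain ⟨i, j⟩ := p
  have h : ((A ⊗ₖ B) *ᵥ layer k w) (i, j) = A i k * (B *ᵥ w) j := by
    simp [Matrix.mulVec, dotProduct, Fintype.sum_prod_type, layer_apply, Finset.mul_sum, mul_assoc]
  rw [h]
  fin_cases i <;> simp [layer_apply]

/-- The layers in the coordinates given by `P` and `e`. -/
noncomputable def emb (e : Fin n ≃ Fin 2 × Fin m) (P : GL (Fin n) F) (k : Fin 2) :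
    (Fin m → F) →ₗ[F] (Fin n → F) :=
  Matrix.mulVecLin (P : Matrix (Fin n) (Fin n) F) ∘ₗ (LinearMap.funLeft F F e) ∘ₗ layer k

/-- The coordinates in a layer. -/
noncomputable def coordTo (e : Fin n ≃ Fin 2 × Fin m) (P : GL (Fin n) F) (k : Fin 2) :
    (Fin n → F) →ₗ[F] (Fin m → F) :=
  (LinearMap.funLeft F F fun j => e.symm (k, j)) ∘ₗ Matrix.mulVecLin ((P⁻¹ : GL (Fin n) F) : Matrix (Fin n) (Fin n) F)

variable (e : Fin n ≃ Fin 2 × Fin m) (P : GL (Fin n) F)

theorem emb_apply (k : Fin 2) (w : Fin m → F) :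
    emb e P k w = (P : Matrix (Fin n) (Fin n) F) *ᵥ (layer k w ∘ e) := rfl

theorem coordTo_emb (k l : Fin 2) (w : Fin m → F) : coordTo e P k (emb e P l w) = if k = l then w else 0 := by
  funext j
  simp only [coordTo, LinearMap.comp_apply, LinearMap.funLeft_apply, Matrix.mulVecLin_apply, emb_apply,
    Matrix.mulVec_mulVec, ← Units.val_mul, inv_mul_cancel, Units.val_one, Matrix.one_mulVec, Function.comp_apply,
    Equiv.apply_symm_apply, layer_apply]
  split_ifs <;> rfl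

theorem emb_coordTo (x : Fin n → F) : emb e P 0 (coordTo e P 0 x) + emb e P 1 (coordTo e P 1 x) = x := by
  rw [emb_apply, emb_apply, ← Matrix.mulVec_add]
  have h : layer 0 (coordTo e P 0 x) ∘ e + layer 1 (coordTo e P 1 x) ∘ e =
      ((P⁻¹ : GL (Fin n) F) : Matrix (Fin n) (Fin n) F) *ᵥ x := by
    funext i
    obtain ⟨⟨a, b⟩, rfl⟩ := e.symm.surjective i
    fin_cases a <;> simp [coordTo, layer_apply, LinearMap.funLeft]
  rw [h, Matrix.mulVec_mulVec, ← Units.val_mul, mul_inv_cancel, Units.val_one, Matrix.one_mulVec]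

theorem emb_injective (k : Fin 2) : Function.Injective (emb e P k) := fun w w' h => by
  simpa [coordTo_emb] using congrArg (coordTo e P k) h

theorem kron_emb (A : Matrix (Fin 2) (Fin 2) F) (B : Matrix (Fin m) (Fin m) F) (k : Fin 2) (w : Fin m → F) :
    ((P : Matrix (Fin n) (Fin n) F) * (A ⊗ₖ B).submatrix e e *
      ((P⁻¹ : GL (Fin n) F) : Matrix (Fin n) (Fin n) F)) *ᵥ emb e P k w =
      emb e P 0 (A 0 k • B *ᵥ w) + emb e P 1 (A 1 k • B *ᵥ w) := by
  rw [emb_apply, ← Matrix.mulVec_mulVec, Matrix.mulVec_mulVec (M := ((P⁻¹ : GL (Fin n) F) : Matrix (Fin n) (Fin n) F)),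
    ← Units.val_mul, inv_mul_cancel, Units.val_one, Matrix.one_mulVec, ← Matrix.mulVec_mulVec,
    Matrix.submatrix_mulVec_equiv, Function.comp_assoc, Equiv.self_comp_symm, Function.comp_id, kron_layer,
    emb_apply, emb_apply, ← Matrix.mulVec_add]
  rfl

variable [Finite F] (Q : QuadraticForm F (Fin n → F)) {f : (Fin n → F) → F} (hf : ⇑Q = f)

theorem pure_of_mem {g : orth Q} (h : toGLHom Q hf g ∈ Cfsg.Geo.tensorProductSubgroup 2 m e P) :
    Pure (emb e P 0) (emb e P 1) g := by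
  obtain ⟨A, B, hAB⟩ := (H19.TensorRank.mem_tensor_iff P _).1 h
  have hd : (A : Matrix (Fin 2) (Fin 2) F).det ≠ 0 :=
    isUnit_iff_ne_zero.1 ((Matrix.isUnit_iff_isUnit_det _).1 A.isUnit)
  rw [Matrix.det_fin_two] at hd
  exact ⟨_, _, _, _, hd, fun w => ⟨(B : Matrix (Fin m) (Fin m) F) *ᵥ w,
    by rw [← toGLHom_mulVec Q hf, hAB, kron_emb], by rw [← toGLHom_mulVec Q hf, hAB, kron_emb]⟩⟩

theorem mem_of_pure {g : orth Q} (h : Pure (emb e P 0) (emb e P 1) g) :
    toGLHom Q hf g ∈ Cfsg.Geo.tensorProductSubgroup 2 m e P := by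
  obtain ⟨a, b, c, d, hdet, hv⟩ := h
  -- the vector part is linear
  obtain ⟨T, hT⟩ : ∃ T : (Fin m → F) →ₗ[F] (Fin m → F), ∀ w,
      g.1 (emb e P 0 w) = emb e P 0 (a • T w) + emb e P 1 (c • T w) ∧
        g.1 (emb e P 1 w) = emb e P 0 (b • T w) + emb e P 1 (d • T w) := by
    by_cases ha : a = 0
    · have hc : c ≠ 0 := fun h => hdet (by rw [ha, h, zero_mul, mul_zero, sub_zero])
      refine ⟨c⁻¹ • (coordTo e P 1 ∘ₗ (g.1 : (Fin n → F) →ₗ[F] (Fin n → F)) ∘ₗ emb e P 0), fun w => ?_⟩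
      obtain ⟨v, h1, h2⟩ := hv w
      have e1 : (c⁻¹ • (coordTo e P 1 ∘ₗ (g.1 : (Fin n → F) →ₗ[F] (Fin n → F)) ∘ₗ emb e P 0)) w = v := by
        simp [h1, map_add, coordTo_emb, inv_smul_smul₀ hc]
      rw [e1]; exact ⟨h1, h2⟩
    · refine ⟨a⁻¹ • (coordTo e P 0 ∘ₗ (g.1 : (Fin n → F) →ₗ[F] (Fin n → F)) ∘ₗ emb e P 0), fun w => ?_⟩
      obtain ⟨v, h1, h2⟩ := hv w
      have e1 : (a⁻¹ • (coordTo e P 0 ∘ₗ (g.1 : (Fin n → F) →ₗ[F] (Fin n → F)) ∘ₗ emb e P 0)) w = v := by
        simp [h1, map_add, coordTo_emb, inv_smul_smul₀ ha]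
      rw [e1]; exact ⟨h1, h2⟩
  have hB : IsUnit (LinearMap.toMatrix' T) := by
    rw [← Matrix.mulVec_injective_iff_isUnit]
    intro w w' hww
    simp only [LinearMap.toMatrix'_mulVec] at hww
    refine emb_injective e P 0 (g.1.injective ?_)
    rw [(hT w).1, (hT w').1, hww]
  have hA : IsUnit (!![a, b; c, d] : Matrix (Fin 2) (Fin 2) F) := by
    rw [Matrix.isUnit_iff_isUnit_det, Matrix.det_fin_two_of]
    exact isUnit_iff_ne_zero.2 hdet
  refine (H19.TensorRank.mem_tensor_iff P _).2 ⟨hA.unit, hB.unit,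
    Matrix.ext_of_mulVec_single fun i => ?_⟩
  rw [← emb_coordTo e P (Pi.single i 1), Matrix.mulVec_add, Matrix.mulVec_add, toGLHom_mulVec, toGLHom_mulVec,
    (hT _).1, (hT _).2, IsUnit.unit_spec, IsUnit.unit_spec, kron_emb, kron_emb]
  simp [LinearMap.toMatrix'_mulVec]

include hf in
/-- The stabiliser of a decomposition `F² ⊗ F^m` of a quadratic space of plus type is maximal in `Ω`. -/
theorem isMaximalIn_tensor_two (hQ : (polarBilin Q).Nondegenerate) (h3 : 3 ≤ Nat.card F) (hm : 5 ≤ m)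
    (f₁ : (Fin 2 → F) → (Fin 2 → F) → F) (f₂ : (Fin m → F) → (Fin m → F) → F)
    (hT : Cfsg.Geo.IsTensorFormStructure id (QuadraticMap.polar f) f₁ f₂ e P)
    (hpure : ∀ (x₁ : Fin 2 → F) (x₂ : Fin m → F),
      f ((P : Matrix (Fin n) (Fin n) F) *ᵥ ((fun a : Fin 2 × Fin m => x₁ a.1 * x₂ a.2) ∘ e)) = 0) :
    Cfsg.Geo.IsMaximalIn (Cfsg.Geo.omegaGL f)
      (Cfsg.Geo.tensorProductSubgroup 2 m e P ⊓ Cfsg.Geo.omegaGL f) := by
  subst hf
  classical
  haveI := Fintype.ofFinite F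
  haveI : Finite (Fin n → F) := Pi.finite
  obtain ⟨c, -, hc⟩ := hT
  set G₁ := Cfsg.Geo.gramMatrix f₁ with hG₁
  set G₂ := Cfsg.Geo.gramMatrix f₂ with hG₂
  set B : (Fin m → F) →ₗ[F] (Fin m → F) →ₗ[F] F := (c * G₁ 0 1) • Matrix.toLinearMap₂' F G₂ with hB
  have hQ1 : ∀ k w, Q (emb e P k w) = 0 := fun k w => by
    have := hpure (fun i => if i = k then 1 else 0) w
    rw [emb_apply]
    convert this using 4
    funext p
    obtain ⟨i, j⟩ := p
    by_cases h : i = k <;> simp [layer_apply, h]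
  have hpol : ∀ x y, polar Q (emb e P 0 x) (emb e P 1 y) = B x y := fun x y => by
    rw [emb_apply, emb_apply, hc]
    simp only [Cfsg.Geo.formOfGram, hB, LinearMap.smul_apply, smul_eq_mul, Matrix.toLinearMap₂'_apply', dotProduct,
      Matrix.mulVec, id_eq, Fintype.sum_prod_type, layer_apply, Matrix.kroneckerMap_apply, Fin.sum_univ_two]
    simp only [Fin.isValue, if_pos, zero_ne_one, one_ne_zero, if_false, ite_mul, zero_mul, mul_zero,
      Finset.sum_const_zero, add_zero, zero_add, Finset.mul_sum]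
    exact Finset.sum_congr rfl fun a _ => Finset.sum_congr rfl fun b _ => by rw [hG₁, hG₂]; ring
  have hqf : ∀ x y, Q (emb e P 0 x + emb e P 1 y) = B x y := fun x y => by
    rw [QuadraticMap.map_add ⇑Q, hQ1, hQ1, hpol, zero_add, zero_add]
  have hS : Split Q (emb e P 0) (emb e P 1) B := by
    refine ⟨fun v => ⟨_, _, emb_coordTo e P v⟩, fun x y h => ⟨?_, ?_⟩, hqf, fun x => ?_, fun x hx => ?_⟩
    · simpa [coordTo_emb] using congrArg (coordTo e P 0) h
    · simpa [coordTo_emb] using congrArg (coordTo e P 1) h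
    · have := hpure (fun _ => 1) x
      rw [← hqf, emb_apply, emb_apply, ← Matrix.mulVec_add]
      convert this using 3
      funext i
      obtain ⟨⟨a, b⟩, rfl⟩ := e.symm.surjective i
      fin_cases a <;> simp [layer_apply]
    · have h0 : emb e P 0 x = 0 := hQ.1 _ fun y => by
        rw [polarBilin_apply_apply, ← emb_coordTo e P y, polar_add_right, hpol, hx, add_zero, polar, ← map_add,
          hQ1, hQ1, hQ1, sub_zero, sub_zero]
      exact emb_injective e P 0 (h0.trans (map_zero _).symm)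
  have hn : n = 2 * m := by simpa using Fintype.card_congr e
  have hdV : 5 ≤ Module.finrank F (Fin n → F) := by rw [Module.finrank_fin_fun]; omega
  have hdW : 5 ≤ Module.finrank F (Fin m → F) := by rwa [Module.finrank_fin_fun]
  refine isMaximalIn_omegaGL Q rfl _ ?_ fun M hM g hg _ hgS => ?_
  · obtain ⟨w, -, -, hw⟩ := hS.exists_perp hdW 0 0
    obtain ⟨y, hwy, -, hy⟩ := hS.exists_perp hdW w w
    simp only [Set.pair_eq_singleton] at hy
    have hwy' : w ∉ Submodule.span F {y} := fun hmem => by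
      obtain ⟨s, hs⟩ := Submodule.mem_span_singleton.1 hmem
      have hw0 : w ≠ 0 := fun h => hw (by rw [h]; exact zero_mem _)
      have hs0 : s ≠ 0 := fun h => hw0 (by rw [← hs, h, zero_smul])
      exact hy (Submodule.mem_span_singleton.2 ⟨s⁻¹, by rw [← hs, inv_smul_smul₀ hs0]⟩)
    obtain ⟨r, hyr, hwr⟩ := hS.exists_val₁ hwy'
    refine ⟨eich Q (emb e P 0 w) (emb e P 0 y), eich_mem_commutator hQ hdV _ _, fun h => ?_⟩
    obtain ⟨a, b, k, d, -, hv⟩ := pure_of_mem e P Q rfl h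
    obtain ⟨v, -, h2⟩ := hv r
    rw [eich_apply (hS.qf₁ w) (hS.polar₁₁ w y), hS.qf₁, hS.polar₁₂, hS.polar₁₂, hwr, hyr] at h2
    have h3 : emb e P 0 y + emb e P 1 r = emb e P 0 (b • v) + emb e P 1 (d • v) := by
      rw [← h2]; simp [add_comm]
    obtain ⟨rfl, rfl⟩ := hS.comp h3
    simp only [map_smul, LinearMap.smul_apply, smul_eq_mul] at hwy hwr
    rcases mul_eq_zero.1 hwy with hb | hb
    · exact hy (by rw [hb, zero_smul]; exact zero_mem _)
    · rw [hb, mul_zero] at hwr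
      exact zero_ne_one hwr
  · have hq3 : ∃ s : F, s ≠ 0 ∧ s ≠ 1 := by
      rw [Nat.card_eq_fintype_card] at h3
      by_contra hall
      push Not at hall
      have hle := Finset.card_le_card (fun s (_ : s ∈ (Finset.univ : Finset F)) =>
        show s ∈ ({0, 1} : Finset F) by by_cases hs : s = 0 <;> simp [hs, hall s])
      have h2 : ({0, 1} : Finset F).card ≤ 2 := Finset.card_le_two
      rw [Finset.card_univ] at hle
      omega
    exact TCtx.omega_le (i₁ := emb e P 0) (i₂ := emb e P 1) (f := B)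
      ⟨hS, hQ, hdV, hdW, hq3, fun k hk hp => hM k hk (mem_of_pure e P Q rfl hp)⟩ hg
      fun hp => hgS (mem_of_pure e P Q rfl hp)

end Cfsg.Agent.H58.TensorTwo
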